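import Mathlib
import Cfsg.Prelude.Def_Sporadic_a
import Cfsg.Agent.Helper2.Steiner

set_option autoImplicit false

/-! Steiner systems S(5,6,12) relative to a block `K`: complements of blocks are blocks, and
each duad of `K` induces a fixed-point-free involution on the complement. -/

namespace Cfsg.Agent.Helper29.W12

open Cfsg.Agent.Helper2.Steiner

variable {α : Type*} [Fintype α] [DecidableEq α] {B : Set (Finset α)} {K : Finset α}

/-- an S(5,6,12) with a chosen block -/
structure W (B : Set (Finset α)) (K : Finset α) : Prop where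
  card : Fintype.card α = 12
  st : Cfsg.IsSteinerSystem 5 6 B
  mem : K ∈ B

theorem compl_mem (hα : Fintype.card α = 12) (hB : Cfsg.IsSteinerSystem 5 6 B) {b : Finset α}
    (hb : b ∈ B) : bᶜ ∈ B := by
  have h0 := inter_sum_erase_val hB hb 0 (by norm_num) 131 (by rw [hα]; decide) (by decide)
  have h1 := inter_sum_erase_val hB hb 1 (by norm_num) 390 (by rw [hα]; decide) (by decide)
  have h2 := inter_sum_erase_val hB hb 2 (by norm_num) 435 (by rw [hα]; decide) (by decide)
  have h3 := inter_sum_erase_val hB hb 3 (by norm_num) 220 (by rw [hα]; decide) (by decide)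
  have h4 := inter_sum_erase_val hB hb 4 (by norm_num) 45 (by rw [hα]; decide) (by decide)
  have hd := disjoint_count hB hb (le_refl 5)
  rw [h0, h1, h2, h3, h4] at hd
  have hpos : 0 < (((blocks B).erase b).filter (fun c => (b ∩ c).card = 0)).card := by omega
  obtain ⟨c, hc⟩ := Finset.card_pos.1 hpos
  rw [Finset.mem_filter, Finset.mem_erase, mem_blocks] at hc
  have hdisj : b ∩ c = ∅ := Finset.card_eq_zero.1 hc.2
  have : c = bᶜ := by
    apply Finset.eq_of_subset_of_card_le
    · intro x hx
      rw [Finset.mem_compl]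
      intro hxb
      have : x ∈ b ∩ c := Finset.mem_inter.2 ⟨hxb, hx⟩
      rw [hdisj] at this
      simp at this
    · rw [Finset.card_compl, hα, hB.1 b hb, hB.1 c hc.1.2]
  rw [← this]
  exact hc.1.2

theorem W.compl (h : W B K) : W B Kᶜ := ⟨h.card, h.st, compl_mem h.card h.st h.mem⟩

omit [DecidableEq α] in
theorem W.cardK (h : W B K) : K.card = 6 := h.st.1 K h.mem

theorem eq_of_five (h : W B K) {c1 c2 : Finset α} (h1 : c1 ∈ B) (h2 : c2 ∈ B)
    (h5 : 5 ≤ (c1 ∩ c2).card) : c1 = c2 := by
  by_contra hne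
  have := inter_lt h.st h1 h2 hne
  omega

/-- the points off `K` -/
abbrev X (K : Finset α) : Type _ := {a : α // a ∉ K}

/-- the duads of `K` -/
abbrev Duad (K : Finset α) : Type _ := {d : Finset α // d ⊆ K ∧ d.card = 2}

theorem card_sdiff_duad (h : W B K) (d : Duad K) : (K \ d.1).card = 4 := by
  rw [Finset.card_sdiff_of_subset d.2.1, h.cardK, d.2.2]

theorem card_blk (h : W B K) (d : Duad K) (a b : X K) (hab : b ≠ a) :
    ((K \ d.1) ∪ {a.1, b.1}).card = 6 := by
  have hne : b.1 ≠ a.1 := fun e => hab (Subtype.ext e)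
  rw [Finset.card_union_of_disjoint, card_sdiff_duad h, Finset.card_pair (Ne.symm hne)]
  rw [Finset.disjoint_left]
  intro x hx hx2
  rw [Finset.mem_sdiff] at hx
  rw [Finset.mem_insert, Finset.mem_singleton] at hx2
  rcases hx2 with rfl | rfl
  · exact a.2 hx.1
  · exact b.2 hx.1

omit [Fintype α] in
theorem blk_inter (d : Duad K) (a b : X K) : ((K \ d.1) ∪ {a.1, b.1}) ∩ K = K \ d.1 := by
  ext x
  simp only [Finset.mem_inter, Finset.mem_union, Finset.mem_sdiff, Finset.mem_insert,
    Finset.mem_singleton]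
  constructor
  · rintro ⟨h1 | rfl | rfl, h2⟩
    · exact h1
    · exact absurd h2 a.2
    · exact absurd h2 b.2
  · intro h1
    exact ⟨Or.inl h1, h1.1⟩

theorem exists_mate (h : W B K) (d : Duad K) (a : X K) :
    ∃ b : X K, b ≠ a ∧ (K \ d.1) ∪ {a.1, b.1} ∈ B := by
  have hdisj : Disjoint (K \ d.1) {a.1} := by
    rw [Finset.disjoint_singleton_right, Finset.mem_sdiff]
    exact fun hx => a.2 hx.1
  have hc : ((K \ d.1) ∪ {a.1}).card = 5 := by
    rw [Finset.card_union_of_disjoint hdisj, card_sdiff_duad h, Finset.card_singleton]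
  obtain ⟨C, ⟨hC, hsub⟩, _⟩ := h.st.2 _ hc
  have hC6 := h.st.1 C hC
  have h1 : (C \ ((K \ d.1) ∪ {a.1})).card = 1 := by
    rw [Finset.card_sdiff_of_subset hsub, hC6, hc]
  obtain ⟨b, hb⟩ := Finset.card_eq_one.1 h1
  have hbmem : b ∈ C \ ((K \ d.1) ∪ {a.1}) := by
    rw [hb]
    exact Finset.mem_singleton_self b
  rw [Finset.mem_sdiff, Finset.mem_union, Finset.mem_sdiff, Finset.mem_singleton] at hbmem
  have hCeq : C = (K \ d.1) ∪ {a.1, b} := by
    have := Finset.union_sdiff_of_subset hsub
    rw [hb] at this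
    rw [← this]
    ext x
    simp only [Finset.mem_union, Finset.mem_sdiff, Finset.mem_insert, Finset.mem_singleton]
    tauto
  have hbK : b ∉ K := by
    intro hbK
    have hsub2 : (K \ d.1) ∪ {b} ⊆ C ∩ K := by
      intro x hx
      rw [Finset.mem_union, Finset.mem_singleton] at hx
      rw [Finset.mem_inter]
      rcases hx with hx | rfl
      · exact ⟨hsub (Finset.mem_union_left _ hx), (Finset.mem_sdiff.1 hx).1⟩
      · exact ⟨hbmem.1, hbK⟩
    have hcard : ((K \ d.1) ∪ {b}).card = 5 := by
      rw [Finset.card_union_of_disjoint, card_sdiff_duad h, Finset.card_singleton]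
      rw [Finset.disjoint_singleton_right, Finset.mem_sdiff]
      exact fun hx => hbmem.2 (Or.inl hx)
    have hCK : C = K := eq_of_five h hC h.mem (hcard ▸ Finset.card_le_card hsub2)
    have haC : a.1 ∈ C := hsub (Finset.mem_union_right _ (Finset.mem_singleton_self _))
    rw [hCK] at haC
    exact a.2 haC
  refine ⟨⟨b, hbK⟩, ?_, hCeq ▸ hC⟩
  intro e
  exact hbmem.2 (Or.inr (congrArg Subtype.val e))

/-- the mate of `a` with respect to the duad `d` -/
noncomputable def mu (h : W B K) (d : Duad K) (a : X K) : X K :=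
  Classical.choose (exists_mate h d a)

theorem mu_ne (h : W B K) (d : Duad K) (a : X K) : mu h d a ≠ a :=
  (Classical.choose_spec (exists_mate h d a)).1

theorem mu_mem (h : W B K) (d : Duad K) (a : X K) :
    (K \ d.1) ∪ {a.1, (mu h d a).1} ∈ B :=
  (Classical.choose_spec (exists_mate h d a)).2

theorem mu_unique (h : W B K) (d : Duad K) (a b : X K) (hb : b ≠ a)
    (hmem : (K \ d.1) ∪ {a.1, b.1} ∈ B) : mu h d a = b := by
  have h5 : 5 ≤ (((K \ d.1) ∪ {a.1, b.1}) ∩ ((K \ d.1) ∪ {a.1, (mu h d a).1})).card := by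
    have hsub : (K \ d.1) ∪ {a.1} ⊆
        ((K \ d.1) ∪ {a.1, b.1}) ∩ ((K \ d.1) ∪ {a.1, (mu h d a).1}) := by
      intro x hx
      simp only [Finset.mem_inter, Finset.mem_union, Finset.mem_sdiff, Finset.mem_insert,
        Finset.mem_singleton] at hx ⊢
      tauto
    have hc : ((K \ d.1) ∪ {a.1}).card = 5 := by
      rw [Finset.card_union_of_disjoint, card_sdiff_duad h, Finset.card_singleton]
      rw [Finset.disjoint_singleton_right, Finset.mem_sdiff]
      exact fun hx => a.2 hx.1
    exact hc ▸ Finset.card_le_card hsub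
  have heq := eq_of_five h hmem (mu_mem h d a) h5
  have hbm : b.1 ∈ (K \ d.1) ∪ {a.1, (mu h d a).1} := by
    rw [← heq]
    simp
  simp only [Finset.mem_union, Finset.mem_sdiff, Finset.mem_insert, Finset.mem_singleton] at hbm
  rcases hbm with hbm | hbm | hbm
  · exact absurd hbm.1 b.2
  · exact absurd (Subtype.ext hbm) hb
  · exact (Subtype.ext hbm).symm

theorem mu_mu (h : W B K) (d : Duad K) (a : X K) : mu h d (mu h d a) = a := by
  apply mu_unique h d _ _ (mu_ne h d a).symm
  rw [Finset.pair_comm]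
  exact mu_mem h d a

theorem mu_eq_iff (h : W B K) (d : Duad K) (a b : X K) : mu h d a = b ↔ mu h d b = a := by
  constructor
  · rintro rfl
    exact mu_mu h d a
  · rintro rfl
    exact mu_mu h d b

/-- duads sharing exactly one point give disjoint involutions -/
theorem mu_ne_of_inter (h : W B K) {d d' : Duad K} (hne : d ≠ d')
    (hint : (d.1 ∩ d'.1).Nonempty) (a : X K) : mu h d a ≠ mu h d' a := by
  intro e
  have h1 := mu_mem h d a
  have h2 := mu_mem h d' a
  rw [← e] at h2
  have hne' : d.1 ≠ d'.1 := fun e => hne (Subtype.ext e)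
  have hcu : (d.1 ∪ d'.1).card = 3 := by
    have h3 := Finset.card_union_add_card_inter d.1 d'.1
    rw [d.2.2, d'.2.2] at h3
    have h4 : 0 < (d.1 ∩ d'.1).card := Finset.card_pos.2 hint
    have h5 : (d.1 ∩ d'.1).card < 2 := by
      by_contra hcon
      push Not at hcon
      have e1 : d.1 ∩ d'.1 = d.1 :=
        Finset.eq_of_subset_of_card_le Finset.inter_subset_left (by rw [d.2.2]; exact hcon)
      have e2 : d.1 ∩ d'.1 = d'.1 :=
        Finset.eq_of_subset_of_card_le Finset.inter_subset_right (by rw [d'.2.2]; exact hcon)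
      exact hne' (e1.symm.trans e2)
    omega
  have h5 : 5 ≤ (((K \ d.1) ∪ {a.1, (mu h d a).1}) ∩
      ((K \ d'.1) ∪ {a.1, (mu h d a).1})).card := by
    have hsub : (K \ (d.1 ∪ d'.1)) ∪ {a.1, (mu h d a).1} ⊆
        ((K \ d.1) ∪ {a.1, (mu h d a).1}) ∩ ((K \ d'.1) ∪ {a.1, (mu h d a).1}) := by
      intro x hx
      simp only [Finset.mem_inter, Finset.mem_union, Finset.mem_sdiff, Finset.mem_insert,
        Finset.mem_singleton] at hx ⊢
      tauto
    have hc : ((K \ (d.1 ∪ d'.1)) ∪ {a.1, (mu h d a).1}).card = 5 := by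
      have hne2 : a.1 ≠ (mu h d a).1 := fun e => mu_ne h d a (Subtype.ext e.symm)
      rw [Finset.card_union_of_disjoint,
        Finset.card_sdiff_of_subset (Finset.union_subset d.2.1 d'.2.1), h.cardK, hcu,
        Finset.card_pair hne2]
      rw [Finset.disjoint_left]
      intro x hx hx2
      rw [Finset.mem_sdiff] at hx
      rw [Finset.mem_insert, Finset.mem_singleton] at hx2
      rcases hx2 with rfl | rfl
      · exact a.2 hx.1
      · exact (mu h d a).2 hx.1
    exact hc ▸ Finset.card_le_card hsub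
  have heq := eq_of_five h h1 h2 h5
  have h6 := congrArg (fun s => s ∩ K) heq
  simp only [blk_inter] at h6
  apply hne'
  rw [← Finset.sdiff_sdiff_eq_self d.2.1, ← Finset.sdiff_sdiff_eq_self d'.2.1, h6]

/-- every point of `K` lies in a duad relating two given points off `K` -/
theorem exists_cover (h : W B K) (a b : X K) (hab : a ≠ b) {c : α} (hc : c ∈ K) :
    ∃ d : Duad K, c ∈ d.1 ∧ mu h d a = b := by
  have hne : a.1 ≠ b.1 := fun e => hab (Subtype.ext e)
  have hd' : ({a.1, b.1} : Finset α) ⊆ Kᶜ ∧ ({a.1, b.1} : Finset α).card = 2 := by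
    refine ⟨?_, Finset.card_pair hne⟩
    intro x hx
    rw [Finset.mem_insert, Finset.mem_singleton] at hx
    rw [Finset.mem_compl]
    rcases hx with rfl | rfl
    · exact a.2
    · exact b.2
  have hc' : c ∉ Kᶜ := by
    rw [Finset.mem_compl]
    exact fun hn => hn hc
  obtain ⟨u, hu, hmem⟩ := exists_mate h.compl ⟨{a.1, b.1}, hd'⟩ ⟨c, hc'⟩
  have huK : u.1 ∈ K := by
    have := u.2
    rw [Finset.mem_compl] at this
    exact not_not.1 this
  have hcu : c ≠ u.1 := fun e => hu (Subtype.ext e.symm)
  have hd : ({c, u.1} : Finset α) ⊆ K ∧ ({c, u.1} : Finset α).card = 2 := by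
    refine ⟨?_, Finset.card_pair hcu⟩
    intro x hx
    rw [Finset.mem_insert, Finset.mem_singleton] at hx
    rcases hx with rfl | rfl
    · exact hc
    · exact huK
  refine ⟨⟨{c, u.1}, hd⟩, by simp, ?_⟩
  apply mu_unique h _ _ _ hab.symm
  have hcm := compl_mem h.card h.st hmem
  have hset : ((Kᶜ \ ({a.1, b.1} : Finset α)) ∪ {c, u.1})ᶜ
      = (K \ ({c, u.1} : Finset α)) ∪ {a.1, b.1} := by
    ext x
    simp only [Finset.mem_compl, Finset.mem_union, Finset.mem_sdiff, Finset.mem_insert,
      Finset.mem_singleton]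
    have ha := a.2
    have hb := b.2
    constructor
    · intro hx
      by_cases hxK : x ∈ K
      · left
        exact ⟨hxK, fun h' => hx (Or.inr h')⟩
      · right
        by_contra hcon
        exact hx (Or.inl ⟨hxK, hcon⟩)
    · rintro (⟨hxK, hx⟩ | hx) hcon
      · rcases hcon with ⟨hxK', _⟩ | hcon
        · exact hxK' hxK
        · exact hx hcon
      · rcases hcon with ⟨_, hcon⟩ | hcon
        · exact hcon hx
        · rcases hx with hx | hx <;> rcases hcon with hcon | hcon
          · exact ha (by rw [← hx, hcon]; exact hc)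
          · exact ha (by rw [← hx, hcon]; exact huK)
          · exact hb (by rw [← hx, hcon]; exact hc)
          · exact hb (by rw [← hx, hcon]; exact huK)
  rw [hset] at hcm
  exact hcm

end Cfsg.Agent.Helper29.W12
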