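import Mathlib
import Cfsg.Prelude.Def_Sporadic_a
import Cfsg.Agent.Helper29.W12.Basic

set_option autoImplicit false

/-! Blocks of an S(5,6,12) meeting a given block `K` in three points, and the injectivity of
the map from duads of `K` to involutions of the complement. -/

namespace Cfsg.Agent.Helper29.W12

variable {α : Type*} [Fintype α] [DecidableEq α] {B : Set (Finset α)} {K : Finset α}

theorem card_X (h : W B K) : Fintype.card (X K) = 6 := by
  rw [Fintype.card_subtype_compl, Fintype.card_coe, h.card, h.cardK]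

theorem no_rel_in (h : W B K) {C : Finset α} (hC : C ∈ B) (h3 : (C ∩ K).card = 3) (e : Duad K)
    (he : Disjoint e.1 C) (x y : X K) (hx : x.1 ∈ C) (hy : y.1 ∈ C) (hxy : x ≠ y) :
    mu h e x ≠ y := by
  intro hmu
  have hm := mu_mem h e x
  rw [hmu] at hm
  have h5 : 5 ≤ (C ∩ ((K \ e.1) ∪ {x.1, y.1})).card := by
    have hsub : (C ∩ K) ∪ {x.1, y.1} ⊆ C ∩ ((K \ e.1) ∪ {x.1, y.1}) := by
      intro z hz
      simp only [Finset.mem_inter, Finset.mem_union, Finset.mem_sdiff, Finset.mem_insert,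
        Finset.mem_singleton] at hz ⊢
      rcases hz with ⟨hzC, hzK⟩ | hz | hz
      · exact ⟨hzC, Or.inl ⟨hzK, fun hze => Finset.disjoint_left.1 he hze hzC⟩⟩
      · exact ⟨hz ▸ hx, Or.inr (Or.inl hz)⟩
      · exact ⟨hz ▸ hy, Or.inr (Or.inr hz)⟩
    have hc : ((C ∩ K) ∪ {x.1, y.1}).card = 5 := by
      rw [Finset.card_union_of_disjoint, h3, Finset.card_pair (fun e => hxy (Subtype.ext e))]
      rw [Finset.disjoint_left]
      intro z hz hz2
      rw [Finset.mem_inter] at hz
      rw [Finset.mem_insert, Finset.mem_singleton] at hz2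
      rcases hz2 with hz2 | hz2
      · exact x.2 (hz2 ▸ hz.2)
      · exact y.2 (hz2 ▸ hz.2)
    exact hc ▸ Finset.card_le_card hsub
  have heq := eq_of_five h hC hm h5
  have h4 : (C ∩ K).card = 4 := by rw [heq, blk_inter, card_sdiff_duad h]
  omega

/-- the duad complementary to `u` in a 3-subset `U` of `K` -/
def duadOf {U : Finset α} (hU : U ⊆ K) (hU3 : U.card = 3) (u : ↥U) : Duad K :=
  ⟨U.erase u.1, (Finset.erase_subset _ _).trans hU, by
    rw [Finset.card_erase_of_mem u.2, hU3]⟩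

theorem mu_duadOf_injective (h : W B K) {U : Finset α} (hU : U ⊆ K) (hU3 : U.card = 3)
    (a : X K) : Function.Injective (fun u : ↥U => mu h (duadOf hU hU3 u) a) := by
  intro u v huv
  by_contra hne
  have hne' : u.1 ≠ v.1 := fun e => hne (Subtype.ext e)
  refine mu_ne_of_inter h (d := duadOf hU hU3 u) (d' := duadOf hU hU3 v) ?_ ?_ a huv
  · intro e
    have h1 := congrArg Subtype.val e
    have hv : v.1 ∈ U.erase u.1 := Finset.mem_erase.2 ⟨Ne.symm hne', v.2⟩
    have : v.1 ∈ U.erase v.1 := by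
      have h2 : U.erase u.1 = U.erase v.1 := h1
      rw [← h2]
      exact hv
    exact (Finset.notMem_erase _ _) this
  · have hc : ((U.erase u.1).erase v.1).card = 1 := by
      rw [Finset.card_erase_of_mem (Finset.mem_erase.2 ⟨Ne.symm hne', v.2⟩),
        Finset.card_erase_of_mem u.2, hU3]
    obtain ⟨w, hw⟩ := Finset.card_pos.1 (by omega : 0 < ((U.erase u.1).erase v.1).card)
    rw [Finset.mem_erase, Finset.mem_erase] at hw
    refine ⟨w, Finset.mem_inter.2 ⟨?_, ?_⟩⟩
    · exact Finset.mem_erase.2 ⟨hw.2.1, hw.2.2⟩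
    · exact Finset.mem_erase.2 ⟨hw.1, hw.2.2⟩

/-- the three mates of `a` for the duads inside `U` -/
noncomputable def mates (h : W B K) {U : Finset α} (hU : U ⊆ K) (hU3 : U.card = 3) (a : X K) :
    Finset (X K) :=
  Finset.univ.image (fun u : ↥U => mu h (duadOf hU hU3 u) a)

theorem card_mates (h : W B K) {U : Finset α} (hU : U ⊆ K) (hU3 : U.card = 3) (a : X K) :
    (mates h hU hU3 a).card = 3 := by
  rw [mates, Finset.card_image_of_injective _ (mu_duadOf_injective h hU hU3 a), Finset.card_univ,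
    Fintype.card_coe, hU3]

theorem card_sdiff_three (h : W B K) {C : Finset α} (h3 : (C ∩ K).card = 3) :
    (K \ C).card = 3 := by
  have := Finset.card_sdiff_add_card_inter K C
  rw [Finset.inter_comm, h3, h.cardK] at this
  omega

theorem three_three (h : W B K) {C : Finset α} (hC : C ∈ B) (h3 : (C ∩ K).card = 3) (a : X K)
    (ha : a.1 ∈ C) (z : X K) (hz : z.1 ∉ C) :
    ∃ e : Duad K, Disjoint e.1 C ∧ mu h e a = z := by
  classical
  have hU : K \ C ⊆ K := Finset.sdiff_subset
  have hU3 := card_sdiff_three h h3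
  have hdisj : ∀ u : ↥(K \ C), Disjoint (duadOf hU hU3 u).1 C := by
    intro u
    rw [Finset.disjoint_left]
    intro x hx hxC
    have : x ∈ K \ C := Finset.mem_of_mem_erase hx
    exact (Finset.mem_sdiff.1 this).2 hxC
  set V : Finset (X K) := Finset.univ.filter (fun y : X K => y.1 ∉ C) with hV
  have hsub : mates h hU hU3 a ⊆ V := by
    intro y hy
    rw [mates, Finset.mem_image] at hy
    obtain ⟨u, _, rfl⟩ := hy
    rw [hV, Finset.mem_filter]
    refine ⟨Finset.mem_univ _, fun hyC => ?_⟩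
    exact no_rel_in h hC h3 (duadOf hU hU3 u) (hdisj u) a _ ha hyC
      (mu_ne h (duadOf hU hU3 u) a).symm rfl
  have hVc : V.card ≤ 3 := by
    have hsub2 : V.map (Function.Embedding.subtype _) ⊆ (K ∪ C)ᶜ := by
      intro x hx
      obtain ⟨y, hy, rfl⟩ := Finset.mem_map.1 hx
      rw [hV, Finset.mem_filter] at hy
      rw [Finset.mem_compl, Finset.mem_union]
      rintro (hK | hC')
      · exact y.2 hK
      · exact hy.2 hC'
    have hc := Finset.card_le_card hsub2
    rw [Finset.card_map, Finset.card_compl, h.card] at hc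
    have hu := Finset.card_union_add_card_inter K C
    rw [Finset.inter_comm, h3, h.cardK, h.st.1 C hC] at hu
    omega
  have heq : mates h hU hU3 a = V :=
    Finset.eq_of_subset_of_card_le hsub (by rw [card_mates]; exact hVc)
  have hzV : z ∈ V := by
    rw [hV, Finset.mem_filter]
    exact ⟨Finset.mem_univ _, hz⟩
  rw [← heq, mates, Finset.mem_image] at hzV
  obtain ⟨u, _, hu⟩ := hzV
  exact ⟨duadOf hU hU3 u, hdisj u, hu⟩

/-- a block meeting `K` in a prescribed 3-set and containing a prescribed point off `K` -/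
theorem exists_33 (h : W B K) {T : Finset α} (hT : T ⊆ K) (hT3 : T.card = 3) (a : X K) :
    ∃ C ∈ B, C ∩ K = T ∧ a.1 ∈ C := by
  classical
  have hU : K \ T ⊆ K := Finset.sdiff_subset
  have hU3 : (K \ T).card = 3 := by
    rw [Finset.card_sdiff_of_subset hT, h.cardK, hT3]
  obtain ⟨b, _, hb⟩ := Finset.exists_mem_notMem_of_card_lt_card
    (s := insert a (mates h hU hU3 a)) (t := Finset.univ) (by
      rw [Finset.card_univ, card_X h]
      exact lt_of_le_of_lt (Finset.card_insert_le _ _) (by rw [card_mates]; norm_num))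
  rw [Finset.mem_insert, not_or] at hb
  have hba : b.1 ≠ a.1 := fun e => hb.1 (Subtype.ext e)
  have hS : (T ∪ {a.1, b.1}).card = 5 := by
    rw [Finset.card_union_of_disjoint, hT3, Finset.card_pair (Ne.symm hba)]
    rw [Finset.disjoint_left]
    intro x hx hx2
    rw [Finset.mem_insert, Finset.mem_singleton] at hx2
    rcases hx2 with hx2 | hx2
    · exact a.2 (hx2 ▸ hT hx)
    · exact b.2 (hx2 ▸ hT hx)
  obtain ⟨C, ⟨hC, hsub⟩, _⟩ := h.st.2 _ hS
  have haC : a.1 ∈ C := hsub (by simp)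
  have hbC : b.1 ∈ C := hsub (by simp)
  refine ⟨C, hC, ?_, haC⟩
  apply Finset.Subset.antisymm
  · intro x hx
    rw [Finset.mem_inter] at hx
    by_contra hxT
    have hxU : x ∈ K \ T := Finset.mem_sdiff.2 ⟨hx.2, hxT⟩
    have hD : (K \ (duadOf hU hU3 ⟨x, hxU⟩).1) ∪ {a.1, b.1} ⊆ C := by
      intro y hy
      simp only [duadOf, Finset.mem_union, Finset.mem_sdiff, Finset.mem_erase, Finset.mem_insert,
        Finset.mem_singleton, not_and, not_not] at hy
      rcases hy with ⟨hyK, hy⟩ | hy | hy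
      · by_cases hyx : y = x
        · rw [hyx]
          exact hx.1
        · have := hy hyx hyK
          exact hsub (Finset.mem_union_left _ this)
      · rw [hy]
        exact haC
      · rw [hy]
        exact hbC
    have hDeq : (K \ (duadOf hU hU3 ⟨x, hxU⟩).1) ∪ {a.1, b.1} = C :=
      Finset.eq_of_subset_of_card_le hD (by
        rw [card_blk h _ a b (fun e => hb.1 e), h.st.1 C hC])
    have hmu : mu h (duadOf hU hU3 ⟨x, hxU⟩) a = b :=
      mu_unique h _ a b (fun e => hb.1 e) (hDeq ▸ hC)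
    apply hb.2
    rw [mates, Finset.mem_image]
    exact ⟨⟨x, hxU⟩, Finset.mem_univ _, hmu⟩
  · intro x hx
    exact Finset.mem_inter.2 ⟨hsub (Finset.mem_union_left _ hx), hT hx⟩

omit [Fintype α] in
theorem duad_eq_pair (e : Duad K) {c w : α} (hc : c ∈ e.1) (hw : w ∈ e.1) (hcw : c ≠ w) :
    e.1 = {c, w} := by
  symm
  apply Finset.eq_of_subset_of_card_le
  · intro x hx
    rw [Finset.mem_insert, Finset.mem_singleton] at hx
    rcases hx with rfl | rfl
    · exact hc
    · exact hw
  · rw [e.2.2, Finset.card_pair hcw]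

/-- disjoint duads give different involutions -/
theorem mu_ne_of_disjoint (h : W B K) {d d' : Duad K} (hdd : Disjoint d.1 d'.1) :
    mu h d ≠ mu h d' := by
  classical
  intro hEq
  obtain ⟨c, hc⟩ := Finset.card_pos.1 (by rw [d.2.2]; norm_num : 0 < d.1.card)
  have hcK : c ∈ K := d.2.1 hc
  have hcd' : c ∉ d'.1 := fun hc' => Finset.disjoint_left.1 hdd hc hc'
  have hUK : insert c d'.1 ⊆ K := Finset.insert_subset hcK d'.2.1
  have hT : K \ insert c d'.1 ⊆ K := Finset.sdiff_subset
  have hT3 : (K \ insert c d'.1).card = 3 := by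
    rw [Finset.card_sdiff_of_subset hUK, h.cardK, Finset.card_insert_of_notMem hcd', d'.2.2]
  obtain ⟨a0⟩ : Nonempty (X K) := Fintype.card_pos_iff.1 (by rw [card_X h]; norm_num)
  obtain ⟨C, hC, hCK, _⟩ := exists_33 h hT hT3 a0
  have h3 : (C ∩ K).card = 3 := by rw [hCK, hT3]
  have hUC : ∀ x ∈ insert c d'.1, x ∉ C := by
    intro x hx hxC
    have : x ∈ C ∩ K := Finset.mem_inter.2 ⟨hxC, hUK hx⟩
    rw [hCK, Finset.mem_sdiff] at this
    exact this.2 hx
  have hCK3 : (C \ K).card = 3 := by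
    have := Finset.card_sdiff_add_card_inter C K
    rw [h3, h.st.1 C hC] at this
    omega
  obtain ⟨a, b, z, hab, haz, hbz, hCKe⟩ := Finset.card_eq_three.1 hCK3
  have hmemC : ∀ x, x ∈ ({a, b, z} : Finset α) → x ∈ C ∧ x ∉ K := by
    intro x hx
    rw [← hCKe, Finset.mem_sdiff] at hx
    exact hx
  have ha := hmemC a (by simp)
  have hb := hmemC b (by simp)
  have hz := hmemC z (by simp)
  have hQ2 : (K \ (d.1 ∪ d'.1)).card = 2 := by
    rw [Finset.card_sdiff_of_subset (Finset.union_subset d.2.1 d'.2.1), h.cardK,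
      Finset.card_union_of_disjoint hdd, d.2.2, d'.2.2]
  have key : ∀ x y : X K, x.1 ∈ C → y.1 ∈ C → x ≠ y →
      ∃ w, w ∈ K \ (d.1 ∪ d'.1) ∧ ∃ e : Duad K, e.1 = {c, w} ∧ mu h e x = y := by
    intro x y hx hy hxy
    obtain ⟨e, hce, hmu⟩ := exists_cover h x y hxy hcK
    obtain ⟨w, hw⟩ := Finset.card_pos.1
      (by rw [Finset.card_erase_of_mem hce, e.2.2]; norm_num : 0 < (e.1.erase c).card)
    rw [Finset.mem_erase] at hw
    have he := duad_eq_pair e hce hw.2 (Ne.symm hw.1)
    refine ⟨w, ?_, e, he, hmu⟩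
    rw [Finset.mem_sdiff, Finset.mem_union]
    refine ⟨e.2.1 hw.2, ?_⟩
    rintro (hwd | hwd')
    · have hed : e = d := by
        apply Subtype.ext
        rw [he, duad_eq_pair d hc hwd (Ne.symm hw.1)]
      rw [hed, hEq] at hmu
      refine no_rel_in h hC h3 d' ?_ x y hx hy hxy hmu
      rw [Finset.disjoint_left]
      intro t ht
      exact hUC t (Finset.mem_insert_of_mem ht)
    · refine no_rel_in h hC h3 e ?_ x y hx hy hxy hmu
      rw [Finset.disjoint_left]
      intro t ht
      rw [he, Finset.mem_insert, Finset.mem_singleton] at ht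
      rcases ht with rfl | rfl
      · exact hUC t (Finset.mem_insert_self _ _)
      · exact hUC t (Finset.mem_insert_of_mem hwd')
  have hab' : (⟨a, ha.2⟩ : X K) ≠ ⟨b, hb.2⟩ := fun e => hab (congrArg Subtype.val e)
  have haz' : (⟨a, ha.2⟩ : X K) ≠ ⟨z, hz.2⟩ := fun e => haz (congrArg Subtype.val e)
  have hbz' : (⟨b, hb.2⟩ : X K) ≠ ⟨z, hz.2⟩ := fun e => hbz (congrArg Subtype.val e)
  obtain ⟨w1, hw1, e1, he1, hm1⟩ := key ⟨a, ha.2⟩ ⟨b, hb.2⟩ ha.1 hb.1 hab'
  obtain ⟨w2, hw2, e2, he2, hm2⟩ := key ⟨a, ha.2⟩ ⟨z, hz.2⟩ ha.1 hz.1 haz'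
  obtain ⟨w3, hw3, e3, he3, hm3⟩ := key ⟨b, hb.2⟩ ⟨z, hz.2⟩ hb.1 hz.1 hbz'
  by_cases h12 : w1 = w2
  · have : e1 = e2 := Subtype.ext (by rw [he1, he2, h12])
    rw [this, hm2] at hm1
    exact hbz' hm1.symm
  by_cases h13 : w1 = w3
  · have : e1 = e3 := Subtype.ext (by rw [he1, he3, h13])
    rw [this, mu_eq_iff, hm3] at hm1
    exact haz' hm1.symm
  by_cases h23 : w2 = w3
  · have : e2 = e3 := Subtype.ext (by rw [he2, he3, h23])
    rw [this, mu_eq_iff] at hm2
    rw [mu_eq_iff, hm2] at hm3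
    exact hab' hm3
  have hsub : ({w1, w2, w3} : Finset α) ⊆ K \ (d.1 ∪ d'.1) := by
    intro x hx
    rw [Finset.mem_insert, Finset.mem_insert, Finset.mem_singleton] at hx
    rcases hx with rfl | rfl | rfl
    · exact hw1
    · exact hw2
    · exact hw3
  have hc3 : ({w1, w2, w3} : Finset α).card = 3 := by
    rw [Finset.card_insert_of_notMem (by simp [h12, h13]),
      Finset.card_insert_of_notMem (by simp [h23]), Finset.card_singleton]
  have := Finset.card_le_card hsub
  omega

end Cfsg.Agent.Helper29.W12
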