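import Mathlib
import Cfsg.Prelude.Def_Sporadic_a
import Cfsg.Agent.Helper29.Plane4Hyp
import Cfsg.Agent.Helper29.W12.Three

set_option autoImplicit false

/-! The projective plane of order 4 attached to a block `K` of an S(5,6,12): its points are
the six points off `K` (a hyperoval) and the fifteen duads of `K`. -/

namespace Cfsg.Agent.Helper29.W12

open Cfsg.Agent.Helper29.Plane4

variable {α : Type*} [Fintype α] [DecidableEq α] {B : Set (Finset α)} {K : Finset α}

/-- the points of the plane -/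
abbrev Pt (K : Finset α) : Type _ := X K ⊕ Duad K

/-- the secant through two points of the hyperoval -/
noncomputable def sec (h : W B K) (a b : X K) : Finset (Pt K) :=
  {Sum.inl a, Sum.inl b} ∪
    (Finset.univ.filter (fun d : Duad K => mu h d a = b)).map ⟨Sum.inr, Sum.inr_injective⟩

/-- the external line attached to a point of `K` -/
def ext (K : Finset α) (x : α) : Finset (Pt K) :=
  (Finset.univ.filter (fun d : Duad K => x ∈ d.1)).map ⟨Sum.inr, Sum.inr_injective⟩

theorem inl_mem_sec (h : W B K) (a b c : X K) :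
    (Sum.inl c : Pt K) ∈ sec h a b ↔ c = a ∨ c = b := by
  simp [sec]

theorem inr_mem_sec (h : W B K) (a b : X K) (d : Duad K) :
    (Sum.inr d : Pt K) ∈ sec h a b ↔ mu h d a = b := by
  simp [sec]

omit [Fintype α] in
theorem inl_notMem_ext [Fintype α] (x : α) (c : X K) : (Sum.inl c : Pt K) ∉ ext K x := by
  simp [ext]

omit [Fintype α] in
theorem inr_mem_ext [Fintype α] (x : α) (d : Duad K) : (Sum.inr d : Pt K) ∈ ext K x ↔ x ∈ d.1 := by
  simp [ext]

theorem sec_comm (h : W B K) (a b : X K) : sec h a b = sec h b a := by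
  ext P
  rcases P with c | d
  · rw [inl_mem_sec, inl_mem_sec]
    tauto
  · rw [inr_mem_sec, inr_mem_sec]
    exact mu_eq_iff h d a b

theorem card_rel (h : W B K) (a b : X K) (hab : a ≠ b) :
    (Finset.univ.filter (fun d : Duad K => mu h d a = b)).card = 3 := by
  have hK : K = (Finset.univ.filter (fun d : Duad K => mu h d a = b)).biUnion (fun d => d.1) := by
    ext c
    rw [Finset.mem_biUnion]
    constructor
    · intro hc
      obtain ⟨d, hcd, hd⟩ := exists_cover h a b hab hc
      exact ⟨d, Finset.mem_filter.2 ⟨Finset.mem_univ _, hd⟩, hcd⟩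
    · rintro ⟨d, _, hcd⟩
      exact d.2.1 hcd
  have hc := congrArg Finset.card hK
  rw [Finset.card_biUnion, h.cardK] at hc
  · rw [Finset.sum_congr rfl (fun d _ => d.2.2), Finset.sum_const, smul_eq_mul] at hc
    omega
  · intro d hd d' hd' hne
    rw [Finset.mem_coe, Finset.mem_filter] at hd hd'
    show Disjoint d.1 d'.1
    by_contra hnd
    rw [Finset.not_disjoint_iff_nonempty_inter] at hnd
    exact mu_ne_of_inter h hne hnd a (hd.2.trans hd'.2.symm)

theorem card_sec (h : W B K) (a b : X K) (hab : a ≠ b) : (sec h a b).card = 5 := by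
  rw [sec, Finset.card_union_of_disjoint, Finset.card_map, card_rel h a b hab,
    Finset.card_pair (fun e => hab (Sum.inl_injective e))]
  rw [Finset.disjoint_left]
  intro P hP hP2
  rw [Finset.mem_insert, Finset.mem_singleton] at hP
  obtain ⟨d, _, hd⟩ := Finset.mem_map.1 hP2
  rcases hP with rfl | rfl <;> exact Sum.inr_ne_inl hd

omit [Fintype α] in
theorem card_ext [Fintype α] {x : α} (hx : x ∈ K) (hK : K.card = 6) : (ext K x).card = 5 := by
  classical
  rw [ext, Finset.card_map]
  have hpair : ∀ y : ↥(K.erase x), ({x, y.1} : Finset α) ⊆ K ∧ ({x, y.1} : Finset α).card = 2 := by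
    intro y
    have hy := Finset.mem_erase.1 y.2
    refine ⟨?_, Finset.card_pair (Ne.symm hy.1)⟩
    intro t ht
    rw [Finset.mem_insert, Finset.mem_singleton] at ht
    rcases ht with rfl | rfl
    · exact hx
    · exact hy.2
  have himg : Finset.univ.filter (fun d : Duad K => x ∈ d.1)
      = Finset.univ.image (fun y : ↥(K.erase x) => (⟨{x, y.1}, hpair y⟩ : Duad K)) := by
    ext d
    rw [Finset.mem_filter, Finset.mem_image]
    constructor
    · rintro ⟨_, hxd⟩
      obtain ⟨w, hw⟩ := Finset.card_pos.1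
        (by rw [Finset.card_erase_of_mem hxd, d.2.2]; norm_num : 0 < (d.1.erase x).card)
      rw [Finset.mem_erase] at hw
      refine ⟨⟨w, Finset.mem_erase.2 ⟨hw.1, d.2.1 hw.2⟩⟩, Finset.mem_univ _, ?_⟩
      apply Subtype.ext
      exact (duad_eq_pair d hxd hw.2 (Ne.symm hw.1)).symm
    · rintro ⟨y, _, rfl⟩
      exact ⟨Finset.mem_univ _, by simp⟩
  rw [himg, Finset.card_image_of_injective, Finset.card_univ, Fintype.card_coe,
    Finset.card_erase_of_mem hx, hK]
  intro y y' hyy
  have h1 : ({x, y.1} : Finset α) = {x, y'.1} := congrArg Subtype.val hyy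
  have hy := Finset.mem_erase.1 y.2
  have h2 : y.1 ∈ ({x, y'.1} : Finset α) := by
    rw [← h1]
    simp
  rw [Finset.mem_insert, Finset.mem_singleton] at h2
  rcases h2 with h2 | h2
  · exact absurd h2 hy.1
  · exact Subtype.ext h2

/-- the lines of the plane -/
def planeLines (h : W B K) : Set (Finset (Pt K)) :=
  {l | (∃ a b : X K, a ≠ b ∧ l = sec h a b) ∨ (∃ x ∈ K, l = ext K x)}

theorem card_Duad (h : W B K) : Fintype.card (Duad K) = 15 := by
  rw [Fintype.card_subtype]
  have : (Finset.univ.filter (fun d : Finset α => d ⊆ K ∧ d.card = 2)) = K.powersetCard 2 := by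
    ext d
    rw [Finset.mem_filter, Finset.mem_powersetCard]
    simp
  rw [this, Finset.card_powersetCard, h.cardK]
  rfl

theorem card_Pt (h : W B K) : Fintype.card (Pt K) = 21 := by
  rw [Fintype.card_sum, card_X h, card_Duad h]

theorem line_inl_inl (h : W B K) {a b : X K} (hab : a ≠ b) {l : Finset (Pt K)}
    (hl : l ∈ planeLines h) (ha : Sum.inl a ∈ l) (hb : Sum.inl b ∈ l) : l = sec h a b := by
  rcases hl with ⟨a', b', hab', rfl⟩ | ⟨x, _, rfl⟩
  · rw [inl_mem_sec] at ha hb
    rcases ha with rfl | rfl <;> rcases hb with rfl | rfl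
    · exact absurd rfl hab
    · rfl
    · exact sec_comm h _ _
    · exact absurd rfl hab
  · exact absurd ha (inl_notMem_ext x a)

theorem line_inl_inr (h : W B K) {a : X K} {d : Duad K} {l : Finset (Pt K)}
    (hl : l ∈ planeLines h) (ha : Sum.inl a ∈ l) (hd : Sum.inr d ∈ l) :
    l = sec h a (mu h d a) := by
  rcases hl with ⟨a', b', hab', rfl⟩ | ⟨x, _, rfl⟩
  · rw [inl_mem_sec] at ha
    rw [inr_mem_sec] at hd
    rcases ha with rfl | rfl
    · rw [hd]
    · rw [(mu_eq_iff h d a' a).1 hd]
      exact sec_comm h _ _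
  · exact absurd ha (inl_notMem_ext x a)

theorem line_inr_inr_inter (h : W B K) {d d' : Duad K} (hne : d ≠ d') {x : α} (hx : x ∈ d.1)
    (hx' : x ∈ d'.1) {l : Finset (Pt K)} (hl : l ∈ planeLines h) (hd : Sum.inr d ∈ l)
    (hd' : Sum.inr d' ∈ l) : l = ext K x := by
  rcases hl with ⟨a', b', hab', rfl⟩ | ⟨x', _, rfl⟩
  · rw [inr_mem_sec] at hd hd'
    exact absurd (hd.trans hd'.symm) (mu_ne_of_inter h hne ⟨x, Finset.mem_inter.2 ⟨hx, hx'⟩⟩ a')
  · rw [inr_mem_ext] at hd hd'
    by_cases hxx : x' = x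
    · rw [hxx]
    · exfalso
      apply hne
      apply Subtype.ext
      rw [duad_eq_pair d hd hx hxx, duad_eq_pair d' hd' hx' hxx]

theorem line_inr_inr_disj (h : W B K) {d d' : Duad K} (hdd : Disjoint d.1 d'.1) {a : X K}
    (ha : mu h d a = mu h d' a) {l : Finset (Pt K)} (hl : l ∈ planeLines h)
    (hd : Sum.inr d ∈ l) (hd' : Sum.inr d' ∈ l) : l = sec h a (mu h d a) := by
  rcases hl with ⟨a', b', hab', rfl⟩ | ⟨x', _, rfl⟩
  · rw [inr_mem_sec] at hd hd'
    by_cases h1 : a' = a
    · rw [← hd, h1]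
    by_cases h2 : a' = mu h d a
    · rw [← hd, h2, mu_mu]
      exact sec_comm h _ _
    exfalso
    apply mu_ne_of_disjoint h hdd
    exact (inv_eq (card_X h) (mu h d) (mu h d') (mu_mu h d) (mu_ne h d) (mu_mu h d')
      (mu_ne h d') a a' h1 h2 ha.symm (hd'.trans hd.symm)).symm
  · rw [inr_mem_ext] at hd hd'
    exact absurd hd' (Finset.disjoint_left.1 hdd hd)

/-- two disjoint duads of `K` have a common pair off `K` -/
theorem exists_common (h : W B K) {d d' : Duad K} (hdd : Disjoint d.1 d'.1) :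
    ∃ a : X K, mu h d a = mu h d' a := by
  classical
  by_contra hcon
  push Not at hcon
  obtain ⟨p, hp⟩ := Finset.card_pos.1 (by rw [d'.2.2]; norm_num : 0 < d'.1.card)
  have hpK : p ∈ K := d'.2.1 hp
  have hpd : p ∉ d.1 := fun hp' => Finset.disjoint_left.1 hdd hp' hp
  have hQ2 : (K \ (d.1 ∪ d'.1)).card = 2 := by
    rw [Finset.card_sdiff_of_subset (Finset.union_subset d.2.1 d'.2.1), h.cardK,
      Finset.card_union_of_disjoint hdd, d.2.2, d'.2.2]
  have key : ∀ a : X K, ∃ w, w ∈ K \ (d.1 ∪ d'.1) ∧ ∃ e : Duad K, e.1 = {p, w} ∧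
      mu h e a = mu h d a := by
    intro a
    obtain ⟨e, hpe, hmu⟩ := exists_cover h a (mu h d a) (mu_ne h d a).symm hpK
    obtain ⟨w, hw⟩ := Finset.card_pos.1
      (by rw [Finset.card_erase_of_mem hpe, e.2.2]; norm_num : 0 < (e.1.erase p).card)
    rw [Finset.mem_erase] at hw
    have he := duad_eq_pair e hpe hw.2 (Ne.symm hw.1)
    refine ⟨w, ?_, e, he, hmu⟩
    rw [Finset.mem_sdiff, Finset.mem_union]
    refine ⟨e.2.1 hw.2, ?_⟩
    rintro (hwd | hwd')
    · have hne : e ≠ d := by
        intro hed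
        rw [hed] at hpe
        exact hpd hpe
      exact mu_ne_of_inter h hne ⟨w, Finset.mem_inter.2 ⟨hw.2, hwd⟩⟩ a hmu
    · have hed : e = d' := by
        apply Subtype.ext
        rw [he, duad_eq_pair d' hp hwd' (Ne.symm hw.1)]
      rw [hed] at hmu
      exact hcon a hmu.symm
  have hX := card_X h
  obtain ⟨a1⟩ : Nonempty (X K) := Fintype.card_pos_iff.1 (by rw [hX]; norm_num)
  obtain ⟨a2, _, ha2⟩ := Finset.exists_mem_notMem_of_card_lt_card
    (s := ({a1, mu h d a1} : Finset (X K))) (t := Finset.univ) (by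
      rw [Finset.card_univ, hX]
      exact lt_of_le_of_lt (Finset.card_insert_le _ _) (by simp))
  obtain ⟨a3, _, ha3⟩ := Finset.exists_mem_notMem_of_card_lt_card
    (s := ({a1, mu h d a1, a2, mu h d a2} : Finset (X K))) (t := Finset.univ) (by
      rw [Finset.card_univ, hX]
      refine lt_of_le_of_lt (Finset.card_insert_le _ _) ?_
      have := Finset.card_insert_le (mu h d a1) ({a2, mu h d a2} : Finset (X K))
      have := Finset.card_insert_le a2 ({mu h d a2} : Finset (X K))
      simp only [Finset.card_singleton] at *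
      omega)
  simp only [Finset.mem_insert, Finset.mem_singleton, not_or] at ha2 ha3
  obtain ⟨w1, hw1, e1, he1, hm1⟩ := key a1
  obtain ⟨w2, hw2, e2, he2, hm2⟩ := key a2
  obtain ⟨w3, hw3, e3, he3, hm3⟩ := key a3
  have hdisj : ∀ (w : α), w ∈ K \ (d.1 ∪ d'.1) → ∀ e : Duad K, e.1 = {p, w} →
      Disjoint e.1 d.1 := by
    intro w hw e he
    rw [Finset.mem_sdiff, Finset.mem_union] at hw
    rw [he, Finset.disjoint_left]
    intro t ht htd
    rw [Finset.mem_insert, Finset.mem_singleton] at ht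
    rcases ht with rfl | rfl
    · exact hpd htd
    · exact hw.2 (Or.inl htd)
  have fin : ∀ (e : Duad K) (u1 u2 : X K), Disjoint e.1 d.1 → u2 ≠ u1 → u2 ≠ mu h d u1 →
      mu h e u1 = mu h d u1 → mu h e u2 = mu h d u2 → False := by
    intro e u1 u2 hed hu hu' e1 e2
    exact mu_ne_of_disjoint h hed (inv_eq hX (mu h d) (mu h e) (mu_mu h d) (mu_ne h d)
      (mu_mu h e) (mu_ne h e) u1 u2 hu hu' e1 e2)
  by_cases h12 : w1 = w2
  · have : e1 = e2 := Subtype.ext (by rw [he1, he2, h12])
    exact fin e1 a1 a2 (hdisj w1 hw1 e1 he1) ha2.1 ha2.2 hm1 (this ▸ hm2)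
  by_cases h13 : w1 = w3
  · have : e1 = e3 := Subtype.ext (by rw [he1, he3, h13])
    exact fin e1 a1 a3 (hdisj w1 hw1 e1 he1) ha3.1 ha3.2.1 hm1 (this ▸ hm3)
  by_cases h23 : w2 = w3
  · have : e2 = e3 := Subtype.ext (by rw [he2, he3, h23])
    exact fin e2 a2 a3 (hdisj w2 hw2 e2 he2) ha3.2.2.1 ha3.2.2.2 hm2 (this ▸ hm3)
  have hsub : ({w1, w2, w3} : Finset α) ⊆ K \ (d.1 ∪ d'.1) := by
    intro x hx
    rw [Finset.mem_insert, Finset.mem_insert, Finset.mem_singleton] at hx
    rcases hx with rfl | rfl | rfl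
    · exact hw1
    · exact hw2
    · exact hw3
  have hc3 : ({w1, w2, w3} : Finset α).card = 3 := by
    rw [Finset.card_insert_of_notMem (by simp [h12, h13]),
      Finset.card_insert_of_notMem (by simp [h23]), Finset.card_singleton]
  have := Finset.card_le_card hsub
  omega

theorem steiner_plane (h : W B K) : Cfsg.IsSteinerSystem 2 5 (planeLines h) := by
  classical
  constructor
  · rintro l (⟨a, b, hab, rfl⟩ | ⟨x, hx, rfl⟩)
    · exact card_sec h a b hab
    · exact card_ext hx h.cardK
  · intro s hs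
    obtain ⟨P, Q, hPQ, rfl⟩ := Finset.card_eq_two.1 hs
    have mix : ∀ (a : X K) (d : Duad K), ∃! l, l ∈ planeLines h ∧
        ({Sum.inl a, Sum.inr d} : Finset (Pt K)) ⊆ l := by
      intro a d
      refine ⟨sec h a (mu h d a), ⟨Or.inl ⟨a, _, (mu_ne h d a).symm, rfl⟩, ?_⟩, ?_⟩
      · intro R hR
        rw [Finset.mem_insert, Finset.mem_singleton] at hR
        rcases hR with rfl | rfl
        · exact (inl_mem_sec h _ _ _).2 (Or.inl rfl)
        · exact (inr_mem_sec h _ _ _).2 rfl
      · rintro l ⟨hl, hsub⟩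
        exact line_inl_inr h hl (hsub (by simp)) (hsub (by simp))
    rcases P with a | d <;> rcases Q with b | d'
    · have hab : a ≠ b := fun e => hPQ (congrArg Sum.inl e)
      refine ⟨sec h a b, ⟨Or.inl ⟨a, b, hab, rfl⟩, ?_⟩, ?_⟩
      · intro R hR
        rw [Finset.mem_insert, Finset.mem_singleton] at hR
        rcases hR with rfl | rfl
        · exact (inl_mem_sec h _ _ _).2 (Or.inl rfl)
        · exact (inl_mem_sec h _ _ _).2 (Or.inr rfl)
      · rintro l ⟨hl, hsub⟩
        exact line_inl_inl h hab hl (hsub (by simp)) (hsub (by simp))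
    · exact mix a d'
    · rw [Finset.pair_comm]
      exact mix b d
    · have hne : d ≠ d' := fun e => hPQ (congrArg Sum.inr e)
      by_cases hint : (d.1 ∩ d'.1).Nonempty
      · obtain ⟨x, hx⟩ := hint
        rw [Finset.mem_inter] at hx
        refine ⟨ext K x, ⟨Or.inr ⟨x, d.2.1 hx.1, rfl⟩, ?_⟩, ?_⟩
        · intro R hR
          rw [Finset.mem_insert, Finset.mem_singleton] at hR
          rcases hR with rfl | rfl
          · exact (inr_mem_ext _ _).2 hx.1
          · exact (inr_mem_ext _ _).2 hx.2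
        · rintro l ⟨hl, hsub⟩
          exact line_inr_inr_inter h hne hx.1 hx.2 hl (hsub (by simp)) (hsub (by simp))
      · rw [← Finset.not_disjoint_iff_nonempty_inter, not_not] at hint
        obtain ⟨a, ha⟩ := exists_common h hint
        refine ⟨sec h a (mu h d a), ⟨Or.inl ⟨a, _, (mu_ne h d a).symm, rfl⟩, ?_⟩, ?_⟩
        · intro R hR
          rw [Finset.mem_insert, Finset.mem_singleton] at hR
          rcases hR with rfl | rfl
          · exact (inr_mem_sec h _ _ _).2 rfl
          · exact (inr_mem_sec h _ _ _).2 ha.symm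
        · rintro l ⟨hl, hsub⟩
          exact line_inr_inr_disj h hint ha hl (hsub (by simp)) (hsub (by simp))

/-- the hyperoval: the points off `K` -/
def hyp (K : Finset α) : Finset (Pt K) := Finset.univ.map ⟨Sum.inl, Sum.inl_injective⟩

omit [Fintype α] in
theorem mem_hyp [Fintype α] (P : Pt K) : P ∈ hyp K ↔ ∃ a, P = Sum.inl a := by
  simp only [hyp, Finset.mem_map, Finset.mem_univ, true_and, Function.Embedding.coeFn_mk]
  constructor
  · rintro ⟨a, rfl⟩
    exact ⟨a, rfl⟩
  · rintro ⟨a, rfl⟩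
    exact ⟨a, rfl⟩

theorem hyp_plane (h : W B K) : Hyp (planeLines h) (hyp K) := by
  refine ⟨card_Pt h, steiner_plane h, ?_, ?_⟩
  · rw [hyp, Finset.card_map, Finset.card_univ, card_X h]
  · rintro l (⟨a, b, hab, rfl⟩ | ⟨x, hx, rfl⟩)
    · have hsub : sec h a b ∩ hyp K ⊆ {Sum.inl a, Sum.inl b} := by
        intro P hP
        rw [Finset.mem_inter, mem_hyp] at hP
        obtain ⟨hP1, c, rfl⟩ := hP
        rw [inl_mem_sec] at hP1
        rw [Finset.mem_insert, Finset.mem_singleton]
        rcases hP1 with rfl | rfl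
        · exact Or.inl rfl
        · exact Or.inr rfl
      exact (Finset.card_le_card hsub).trans Finset.card_le_two
    · have : ext K x ∩ hyp K = ∅ := by
        ext P
        rw [Finset.mem_inter, mem_hyp]
        constructor
        · rintro ⟨hP1, c, rfl⟩
          exact absurd hP1 (inl_notMem_ext x c)
        · intro hP
          simp at hP
      rw [this]
      simp

end Cfsg.Agent.Helper29.W12
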