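import Mathlib
import Cfsg.Prelude.Def_Sporadic_a
import Cfsg.Agent.Helper29.W12.Plane

set_option autoImplicit false

/-! Extension of bijections between blocks of two S(5,6,12) to isomorphisms, and rigidity. -/

namespace Cfsg.Agent.Helper29.W12

open Cfsg.Agent.Helper29.Plane4

variable {α β : Type*} [Fintype α] [DecidableEq α] [Fintype β] [DecidableEq β]
  {B : Set (Finset α)} {K : Finset α} {B1 : Set (Finset β)} {K1 : Finset β}

omit [Fintype α] [Fintype β] in
theorem compl_image_compl [Fintype α] [Fintype β] (e0 : α ≃ β) (C : Finset α) :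
    (Cᶜ.image e0)ᶜ = C.image e0 := by
  ext y
  rw [Finset.mem_compl, Finset.mem_image, Finset.mem_image]
  constructor
  · intro hy
    refine ⟨e0.symm y, ?_, e0.apply_symm_apply y⟩
    by_contra hx
    exact hy ⟨e0.symm y, Finset.mem_compl.2 hx, e0.apply_symm_apply y⟩
  · rintro ⟨x, hx, rfl⟩ ⟨x', hx', hxx⟩
    rw [e0.injective hxx] at hx'
    exact (Finset.mem_compl.1 hx') hx

/-- a bijection compatible with the block `K` and the mates maps blocks to blocks -/
theorem map_blocks (hW : W B K) (hW1 : W B1 K1) (e0 : α ≃ β) (hK : ∀ x, x ∈ K ↔ e0 x ∈ K1)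
    (hmu : ∀ (d : Duad K) (a : X K),
      (K1 \ d.1.image e0) ∪ {e0 a.1, e0 (mu hW d a).1} ∈ B1) :
    ∀ C ∈ B, C.image e0 ∈ B1 := by
  classical
  have himK : K.image e0 = K1 := by
    apply Finset.eq_of_subset_of_card_le
    · intro y hy
      obtain ⟨x, hx, rfl⟩ := Finset.mem_image.1 hy
      exact (hK x).1 hx
    · rw [Finset.card_image_of_injective _ e0.injective, hW.cardK, hW1.cardK]
  have hcardimg : ∀ C : Finset α, (C.image e0).card = C.card :=
    fun C => Finset.card_image_of_injective _ e0.injective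
  -- blocks meeting `K` in at least five points
  have hA : ∀ C ∈ B, 5 ≤ (C ∩ K).card → C.image e0 ∈ B1 := by
    intro C hC h5
    rw [eq_of_five hW hC hW.mem h5, himK]
    exact hW1.mem
  -- blocks meeting `K` in four points
  have hB4 : ∀ C ∈ B, (C ∩ K).card = 4 → C.image e0 ∈ B1 := by
    intro C hC h4
    have hd : K \ C ⊆ K ∧ (K \ C).card = 2 := by
      refine ⟨Finset.sdiff_subset, ?_⟩
      have := Finset.card_sdiff_add_card_inter K C
      rw [Finset.inter_comm, h4, hW.cardK] at this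
      omega
    have hCK2 : (C \ K).card = 2 := by
      have := Finset.card_sdiff_add_card_inter C K
      rw [h4, hW.st.1 C hC] at this
      omega
    obtain ⟨a, b, hab, hCKe⟩ := Finset.card_eq_two.1 hCK2
    have hmemC : ∀ x, x ∈ ({a, b} : Finset α) → x ∈ C ∧ x ∉ K := by
      intro x hx
      rw [← hCKe, Finset.mem_sdiff] at hx
      exact hx
    have ha := hmemC a (by simp)
    have hb := hmemC b (by simp)
    have hCeq : C = (K \ (K \ C)) ∪ {a, b} := by
      rw [← hCKe]
      ext x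
      simp only [Finset.mem_union, Finset.mem_sdiff, not_and, not_not]
      constructor
      · intro hx
        by_cases hxK : x ∈ K
        · exact Or.inl ⟨hxK, fun _ => hx⟩
        · exact Or.inr ⟨hx, hxK⟩
      · rintro (⟨hxK, hx⟩ | ⟨hx, _⟩)
        · exact hx hxK
        · exact hx
    have hmuab : mu hW ⟨K \ C, hd⟩ ⟨a, ha.2⟩ = ⟨b, hb.2⟩ := by
      apply mu_unique hW _ _ _ (fun e => hab (congrArg Subtype.val e).symm)
      show (K \ (K \ C)) ∪ {a, b} ∈ B
      rw [← hCeq]
      exact hC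
    have hblk := hmu ⟨K \ C, hd⟩ ⟨a, ha.2⟩
    rw [hmuab] at hblk
    have hsub : C.image e0 ⊆ (K1 \ (K \ C).image e0) ∪ {e0 a, e0 b} := by
      intro y hy
      obtain ⟨x, hx, rfl⟩ := Finset.mem_image.1 hy
      rw [Finset.mem_union, Finset.mem_sdiff, Finset.mem_insert, Finset.mem_singleton]
      by_cases hxK : x ∈ K
      · left
        refine ⟨(hK x).1 hxK, fun hmem => ?_⟩
        obtain ⟨x', hx', hxx⟩ := Finset.mem_image.1 hmem
        rw [e0.injective hxx] at hx'
        exact (Finset.mem_sdiff.1 hx').2 hx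
      · right
        have : x ∈ C \ K := Finset.mem_sdiff.2 ⟨hx, hxK⟩
        rw [hCKe, Finset.mem_insert, Finset.mem_singleton] at this
        rcases this with rfl | rfl
        · exact Or.inl rfl
        · exact Or.inr rfl
    have heq := Finset.eq_of_subset_of_card_le hsub (by
      rw [hcardimg, hW.st.1 C hC, hW1.st.1 _ hblk])
    rw [heq]
    exact hblk
  -- blocks meeting `K` in three points
  have hC3 : ∀ C ∈ B, (C ∩ K).card = 3 → C.image e0 ∈ B1 := by
    intro C hC h3
    have hCK3 : (C \ K).card = 3 := by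
      have := Finset.card_sdiff_add_card_inter C K
      rw [h3, hW.st.1 C hC] at this
      omega
    obtain ⟨a, ha⟩ := Finset.card_pos.1 (by omega : 0 < (C \ K).card)
    rw [Finset.mem_sdiff] at ha
    have hT1 : (C ∩ K).image e0 ⊆ K1 := by
      intro y hy
      obtain ⟨x, hx, rfl⟩ := Finset.mem_image.1 hy
      exact (hK x).1 (Finset.mem_inter.1 hx).2
    have ha1 : e0 a ∉ K1 := fun hh => ha.2 ((hK a).2 hh)
    obtain ⟨C1, hC1, hC1K, haC1⟩ := exists_33 hW1 hT1 (by rw [hcardimg, h3]) ⟨e0 a, ha1⟩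
    have h31 : (C1 ∩ K1).card = 3 := by rw [hC1K, hcardimg, h3]
    have hsub : C.image e0 ⊆ C1 := by
      intro y hy
      obtain ⟨x, hx, rfl⟩ := Finset.mem_image.1 hy
      by_cases hxK : x ∈ K
      · have : e0 x ∈ (C ∩ K).image e0 :=
          Finset.mem_image_of_mem _ (Finset.mem_inter.2 ⟨hx, hxK⟩)
        rw [← hC1K] at this
        exact (Finset.mem_inter.1 this).1
      · by_contra hx1
        have hx1K : e0 x ∉ K1 := fun hh => hxK ((hK x).2 hh)
        obtain ⟨e1, he1, hmu1⟩ := three_three hW1 hC1 h31 ⟨e0 a, ha1⟩ haC1 ⟨e0 x, hx1K⟩ hx1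
        have hed : e1.1.image e0.symm ⊆ K ∧ (e1.1.image e0.symm).card = 2 := by
          refine ⟨?_, by rw [Finset.card_image_of_injective _ e0.symm.injective, e1.2.2]⟩
          intro t ht
          obtain ⟨t1, ht1, rfl⟩ := Finset.mem_image.1 ht
          rw [hK, e0.apply_symm_apply]
          exact e1.2.1 ht1
        have himg : (e1.1.image e0.symm).image e0 = e1.1 := by
          rw [Finset.image_image]
          have : (⇑e0 ∘ ⇑e0.symm) = id := by
            funext t
            simp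
          rw [this, Finset.image_id]
        have hblk := hmu ⟨e1.1.image e0.symm, hed⟩ ⟨a, ha.2⟩
        simp only [himg] at hblk
        have hmu2 := mu_unique hW1 e1 ⟨e0 a, ha1⟩
          ⟨e0 (mu hW ⟨e1.1.image e0.symm, hed⟩ ⟨a, ha.2⟩).1, fun hh =>
            (mu hW ⟨e1.1.image e0.symm, hed⟩ ⟨a, ha.2⟩).2 ((hK _).2 hh)⟩
          (fun e => mu_ne hW ⟨e1.1.image e0.symm, hed⟩ ⟨a, ha.2⟩
            (Subtype.ext (e0.injective (congrArg Subtype.val e)))) hblk
        rw [hmu1] at hmu2
        have hmu3 : mu hW ⟨e1.1.image e0.symm, hed⟩ ⟨a, ha.2⟩ = ⟨x, hxK⟩ :=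
          Subtype.ext (e0.injective (congrArg Subtype.val hmu2).symm)
        have hdisj : Disjoint (e1.1.image e0.symm) C := by
          rw [Finset.disjoint_left]
          intro t ht htC
          have htK : t ∈ K := hed.1 ht
          have h1 : e0 t ∈ (C ∩ K).image e0 :=
            Finset.mem_image_of_mem _ (Finset.mem_inter.2 ⟨htC, htK⟩)
          rw [← hC1K] at h1
          have h2 : e0 t ∈ e1.1 := by
            rw [← himg]
            exact Finset.mem_image_of_mem _ ht
          exact Finset.disjoint_left.1 he1 h2 (Finset.mem_inter.1 h1).1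
        have hax : (⟨a, ha.2⟩ : X K) ≠ ⟨x, hxK⟩ := by
          intro e
          have : a = x := congrArg Subtype.val e
          rw [← this] at hx1
          exact hx1 haC1
        exact no_rel_in hW hC h3 ⟨e1.1.image e0.symm, hed⟩ hdisj ⟨a, ha.2⟩ ⟨x, hxK⟩ ha.1 hx hax
          hmu3
    have heq := Finset.eq_of_subset_of_card_le hsub (by
      rw [hcardimg, hW.st.1 C hC, hW1.st.1 _ hC1])
    rw [heq]
    exact hC1
  intro C hC
  have hle : (C ∩ K).card ≤ 6 := by
    rw [← hW.cardK]
    exact Finset.card_le_card Finset.inter_subset_right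
  by_cases h5 : 5 ≤ (C ∩ K).card
  · exact hA C hC h5
  by_cases h4 : (C ∩ K).card = 4
  · exact hB4 C hC h4
  by_cases h3 : (C ∩ K).card = 3
  · exact hC3 C hC h3
  have hCc : Cᶜ ∈ B := compl_mem hW.card hW.st hC
  have hcc : (Cᶜ ∩ K).card = 6 - (C ∩ K).card := by
    have h1 : Cᶜ ∩ K = K \ C := by
      ext x
      simp only [Finset.mem_inter, Finset.mem_compl, Finset.mem_sdiff]
      tauto
    have := Finset.card_sdiff_add_card_inter K C
    rw [Finset.inter_comm K C, hW.cardK] at this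
    rw [h1]
    omega
  have himgc : Cᶜ.image e0 ∈ B1 := by
    by_cases h5' : 5 ≤ (Cᶜ ∩ K).card
    · exact hA _ hCc h5'
    · exact hB4 _ hCc (by omega)
  rw [← compl_image_compl e0 C]
  exact compl_mem hW1.card hW1.st himgc

/-- every bijection between the complements of two blocks extends to an isomorphism -/
theorem exists_iso (hW : W B K) (hW1 : W B1 K1) (φ0 : X K ≃ X K1) :
    ∃ e0 : α ≃ β, (∀ a : X K, e0 a.1 = (φ0 a).1) ∧ ∀ C ∈ B, C.image e0 ∈ B1 := by
  classical
  let δ0 : Duad K ≃ Duad K1 := Fintype.equivOfCardEq ((card_Duad hW).trans (card_Duad hW1).symm)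
  let E0 : Pt K ≃ Pt K1 := Equiv.sumCongr φ0 δ0
  have hE0 : ∀ P : Pt K, P ∈ hyp K ↔ E0 P ∈ hyp K1 := by
    intro P
    rw [mem_hyp, mem_hyp]
    rcases P with a | d
    · exact ⟨fun _ => ⟨φ0 a, rfl⟩, fun _ => ⟨a, rfl⟩⟩
    · constructor
      · rintro ⟨a, ha⟩
        exact absurd ha Sum.inr_ne_inl
      · rintro ⟨a, ha⟩
        exact absurd ha Sum.inr_ne_inl
  obtain ⟨Φ, hΦ1, hΦ2⟩ := exists_ext (hyp_plane hW) (hyp_plane hW1) (E0.subtypeEquiv hE0)
  have hΦl : ∀ a : X K, Φ (Sum.inl a) = Sum.inl (φ0 a) := by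
    intro a
    exact hΦ1 ⟨Sum.inl a, (mem_hyp _).2 ⟨a, rfl⟩⟩
  have hinr : ∀ d : Duad K, ∃ d1 : Duad K1, Φ (Sum.inr d) = Sum.inr d1 := by
    intro d
    rcases hΦd : Φ (Sum.inr d) with a1 | d1
    · exfalso
      have := hΦl (φ0.symm a1)
      rw [φ0.apply_symm_apply, ← hΦd] at this
      exact Sum.inl_ne_inr (Φ.injective this)
    · exact ⟨d1, rfl⟩
  choose δ hδ using hinr
  have hext : ∀ x : ↥K, ∃ x1 : ↥K1, (ext K x.1).image Φ = ext K1 x1.1 := by
    intro x
    rcases hΦ2 (ext K x.1) (Or.inr ⟨x.1, x.2, rfl⟩) with ⟨a1, b1, _, hl⟩ | ⟨x1, hx1, hl⟩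
    · exfalso
      have hmem : (Sum.inl a1 : Pt K1) ∈ (ext K x.1).image Φ := by
        rw [hl]
        exact (inl_mem_sec hW1 _ _ _).2 (Or.inl rfl)
      obtain ⟨P, hP, hPa⟩ := Finset.mem_image.1 hmem
      rcases P with c | d
      · exact inl_notMem_ext _ _ hP
      · rw [hδ] at hPa
        exact Sum.inr_ne_inl hPa
    · exact ⟨⟨x1, hx1⟩, hl⟩
  choose ψ hψ using hext
  have hψmem : ∀ (d : Duad K) (x : ↥K), x.1 ∈ d.1 → (ψ x).1 ∈ (δ d).1 := by
    intro d x hxd
    have h1 : Φ (Sum.inr d) ∈ (ext K x.1).image Φ :=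
      Finset.mem_image_of_mem _ ((inr_mem_ext _ _).2 hxd)
    rw [hψ, hδ, inr_mem_ext] at h1
    exact h1
  have hψinj : Function.Injective ψ := by
    intro x y hxy
    by_contra hne
    have hne' : x.1 ≠ y.1 := fun e => hne (Subtype.ext e)
    have hexteq : ext K x.1 = ext K y.1 := by
      apply Finset.image_injective Φ.injective
      show (ext K x.1).image Φ = (ext K y.1).image Φ
      rw [hψ, hψ, hxy]
    obtain ⟨z, hz, hzn⟩ := Finset.exists_mem_notMem_of_card_lt_card
      (s := ({x.1, y.1} : Finset α)) (t := K) (by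
        rw [hW.cardK]
        exact lt_of_le_of_lt Finset.card_le_two (by norm_num))
    rw [Finset.mem_insert, Finset.mem_singleton, not_or] at hzn
    have hd : ({x.1, z} : Finset α) ⊆ K ∧ ({x.1, z} : Finset α).card = 2 := by
      refine ⟨?_, Finset.card_pair (Ne.symm hzn.1)⟩
      intro t ht
      rw [Finset.mem_insert, Finset.mem_singleton] at ht
      rcases ht with rfl | rfl
      · exact x.2
      · exact hz
    have h1 : (Sum.inr ⟨{x.1, z}, hd⟩ : Pt K) ∈ ext K x.1 := (inr_mem_ext _ _).2 (by simp)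
    rw [hexteq, inr_mem_ext, Finset.mem_insert, Finset.mem_singleton] at h1
    rcases h1 with h1 | h1
    · exact hne' h1.symm
    · exact hzn.2 h1.symm
  have hψbij : Function.Bijective ψ :=
    (Fintype.bijective_iff_injective_and_card ψ).2 ⟨hψinj, by
      rw [Fintype.card_coe, Fintype.card_coe, hW.cardK, hW1.cardK]⟩
  let ψe : ↥K ≃ ↥K1 := Equiv.ofBijective ψ hψbij
  let e0 : α ≃ β := (Equiv.sumCompl (· ∈ K)).symm.trans
    ((Equiv.sumCongr ψe φ0).trans (Equiv.sumCompl (· ∈ K1)))
  have he0K : ∀ (x : α) (hx : x ∈ K), e0 x = (ψ ⟨x, hx⟩).1 := by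
    intro x hx
    show (Equiv.sumCompl (· ∈ K1)) ((Equiv.sumCongr ψe φ0) ((Equiv.sumCompl (· ∈ K)).symm x)) = _
    rw [Equiv.sumCompl_symm_apply_of_pos hx]
    rfl
  have he0X : ∀ a : X K, e0 a.1 = (φ0 a).1 := by
    intro a
    show (Equiv.sumCompl (· ∈ K1)) ((Equiv.sumCongr ψe φ0)
      ((Equiv.sumCompl (· ∈ K)).symm a.1)) = _
    rw [Equiv.sumCompl_symm_apply_of_neg a.2]
    rfl
  have hK : ∀ x, x ∈ K ↔ e0 x ∈ K1 := by
    intro x
    constructor
    · intro hx
      rw [he0K x hx]
      exact (ψ ⟨x, hx⟩).2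
    · intro hx
      by_contra hxK
      rw [he0X ⟨x, hxK⟩] at hx
      exact (φ0 ⟨x, hxK⟩).2 hx
  have hδimg : ∀ d : Duad K, (δ d).1 = d.1.image e0 := by
    intro d
    symm
    apply Finset.eq_of_subset_of_card_le
    · intro y hy
      obtain ⟨x, hx, rfl⟩ := Finset.mem_image.1 hy
      rw [he0K x (d.2.1 hx)]
      exact hψmem d ⟨x, d.2.1 hx⟩ hx
    · rw [Finset.card_image_of_injective _ e0.injective, d.2.2, (δ d).2.2]
  refine ⟨e0, he0X, map_blocks hW hW1 e0 hK ?_⟩
  intro d a
  have hne : a ≠ mu hW d a := (mu_ne hW d a).symm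
  have hl := hΦ2 (sec hW a (mu hW d a)) (Or.inl ⟨a, _, hne, rfl⟩)
  have h1 : (Sum.inl (φ0 a) : Pt K1) ∈ (sec hW a (mu hW d a)).image Φ := by
    rw [← hΦl]
    exact Finset.mem_image_of_mem _ ((inl_mem_sec hW _ _ _).2 (Or.inl rfl))
  have h2 : (Sum.inl (φ0 (mu hW d a)) : Pt K1) ∈ (sec hW a (mu hW d a)).image Φ := by
    rw [← hΦl]
    exact Finset.mem_image_of_mem _ ((inl_mem_sec hW _ _ _).2 (Or.inr rfl))
  have hsec := line_inl_inl hW1 (fun e => hne (φ0.injective e)) hl h1 h2
  have h3 : (Sum.inr (δ d) : Pt K1) ∈ (sec hW a (mu hW d a)).image Φ := by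
    rw [← hδ]
    exact Finset.mem_image_of_mem _ ((inr_mem_sec hW _ _ _).2 rfl)
  rw [hsec, inr_mem_sec] at h3
  have h4 := mu_mem hW1 (δ d) (φ0 a)
  rw [h3, hδimg, ← he0X, ← he0X] at h4
  exact h4

/-- an automorphism fixing the complement of a block pointwise is trivial -/
theorem rigid (hW : W B K) (g : Equiv.Perm α) (hg : ∀ C ∈ B, C.image g ∈ B)
    (hfix : ∀ a, a ∉ K → g a = a) (x : α) : g x = x := by
  classical
  have hgK : ∀ x ∈ K, g x ∈ K := by
    intro x hx
    by_contra hgx
    have := hfix _ hgx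
    rw [g.injective this] at hgx
    exact hgx hx
  have himK : K.image g = K := by
    apply Finset.eq_of_subset_of_card_le
    · intro y hy
      obtain ⟨x, hx, rfl⟩ := Finset.mem_image.1 hy
      exact hgK x hx
    · rw [Finset.card_image_of_injective _ g.injective]
  have hgd : ∀ d : Duad K, d.1.image g ⊆ K ∧ (d.1.image g).card = 2 := by
    intro d
    refine ⟨?_, by rw [Finset.card_image_of_injective _ g.injective, d.2.2]⟩
    intro y hy
    obtain ⟨x, hx, rfl⟩ := Finset.mem_image.1 hy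
    exact hgK x (d.2.1 hx)
  have hmu : ∀ d : Duad K, mu hW ⟨d.1.image g, hgd d⟩ = mu hW d := by
    intro d
    funext a
    apply mu_unique hW _ _ _ (mu_ne hW d a)
    have h1 := hg _ (mu_mem hW d a)
    rw [Finset.image_union, Finset.image_sdiff _ _ g.injective, himK, Finset.image_insert,
      Finset.image_singleton, hfix _ a.2, hfix _ (mu hW d a).2] at h1
    exact h1
  obtain ⟨a0⟩ : Nonempty (X K) := Fintype.card_pos_iff.1 (by rw [card_X hW]; norm_num)
  have hdfix : ∀ d : Duad K, d.1.image g = d.1 := by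
    intro d
    by_contra hne
    have hne' : (⟨d.1.image g, hgd d⟩ : Duad K) ≠ d := fun e => hne (congrArg Subtype.val e)
    by_cases hint : ((d.1.image g) ∩ d.1).Nonempty
    · exact mu_ne_of_inter hW hne' hint a0 (congrFun (hmu d) a0)
    · rw [← Finset.not_disjoint_iff_nonempty_inter, not_not] at hint
      exact mu_ne_of_disjoint hW (d := ⟨d.1.image g, hgd d⟩) (d' := d) hint (hmu d)
  by_cases hx : x ∈ K
  · obtain ⟨y, hy⟩ := Finset.card_pos.1
      (by rw [Finset.card_erase_of_mem hx, hW.cardK]; norm_num : 0 < (K.erase x).card)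
    obtain ⟨z, hz⟩ := Finset.card_pos.1
      (by rw [Finset.card_erase_of_mem hy, Finset.card_erase_of_mem hx, hW.cardK]; norm_num :
        0 < ((K.erase x).erase y).card)
    rw [Finset.mem_erase] at hy
    rw [Finset.mem_erase, Finset.mem_erase] at hz
    have hd1 : ({x, y} : Finset α) ⊆ K ∧ ({x, y} : Finset α).card = 2 := by
      refine ⟨?_, Finset.card_pair (Ne.symm hy.1)⟩
      intro t ht
      rw [Finset.mem_insert, Finset.mem_singleton] at ht
      rcases ht with rfl | rfl
      · exact hx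
      · exact hy.2
    have hd2 : ({x, z} : Finset α) ⊆ K ∧ ({x, z} : Finset α).card = 2 := by
      refine ⟨?_, Finset.card_pair (Ne.symm hz.2.1)⟩
      intro t ht
      rw [Finset.mem_insert, Finset.mem_singleton] at ht
      rcases ht with rfl | rfl
      · exact hx
      · exact hz.2.2
    have h1 : g x ∈ ({x, y} : Finset α) := by
      have := hdfix ⟨{x, y}, hd1⟩
      simp only at this
      rw [← this]
      exact Finset.mem_image_of_mem _ (by simp)
    have h2 : g x ∈ ({x, z} : Finset α) := by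
      have := hdfix ⟨{x, z}, hd2⟩
      simp only at this
      rw [← this]
      exact Finset.mem_image_of_mem _ (by simp)
    rw [Finset.mem_insert, Finset.mem_singleton] at h1 h2
    rcases h1 with h1 | h1
    · exact h1
    · rcases h2 with h2 | h2
      · exact h2
      · exact absurd (h1.symm.trans h2) (Ne.symm hz.1)
  · exact hfix x hx

end Cfsg.Agent.Helper29.W12
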